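/-
The stabiliser in `Ω(Q)` of a non-degenerate subspace is maximal (outside small exceptions).
-/
import Cfsg.Agent.Lib.GeoOmega.Levi
set_option autoImplicit false

namespace Cfsg.Agent.Lib.GeoOmega.Nondeg

open Cfsg Cfsg.Geo Cfsg.Agent.Lib.Geo.Basic Cfsg.Agent.Lib.Geo.Parabolic Cfsg.Agent.Lib.Geo.Centres
open Cfsg.Agent.Lib.Geo.Polar Cfsg.Agent.Lib.Geo.QForm
open Cfsg.Agent.Lib.QuadFn Cfsg.Agent.Lib.GeoOmega.Basic Cfsg.Agent.Lib.GeoOmega.Planes
open Cfsg.Agent.Lib.GeoOmega.Eichler Cfsg.Agent.Lib.GeoOmega.Singular Cfsg.Agent.Lib.GeoOmega.Roots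
open Cfsg.Agent.Lib.GeoOmega.Levi
open scoped MatrixGroups Matrix

variable {ι : Type} [Fintype ι] [DecidableEq ι] {F : Type*} [Field F]
variable {Q : (ι → F) → F}

/-- An orthogonal decomposition. -/
structure OrthDec (Q : (ι → F) → F) (X Y : Submodule F (ι → F)) : Prop where
  sup : X ⊔ Y = ⊤
  inf : X ⊓ Y = ⊥
  orth : ∀ a ∈ X, ∀ b ∈ Y, pol Q a b = 0

/-- Non-degeneracy of the polar form on a subspace. -/
def NDOn (Q : (ι → F) → F) (Y : Submodule F (ι → F)) : Prop :=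
  ∀ y ∈ Y, y ≠ 0 → ∃ y' ∈ Y, pol Q y y' ≠ 0

omit [DecidableEq ι] in
theorem exists_not_mem_two {Y Y₀ Y₁ : Submodule F (ι → F)} (h0 : ¬ Y ≤ Y₀) (h1 : ¬ Y ≤ Y₁) :
    ∃ s ∈ Y, s ∉ Y₀ ∧ s ∉ Y₁ := by
  obtain ⟨u, hu, hu0⟩ := SetLike.not_le_iff_exists.mp h0
  obtain ⟨v, hv, hv1⟩ := SetLike.not_le_iff_exists.mp h1
  by_cases hu1 : u ∈ Y₁
  · by_cases hv0 : v ∈ Y₀
    · refine ⟨u + v, Y.add_mem hu hv, fun h => hu0 ?_, fun h => hv1 ?_⟩
      · have := Y₀.sub_mem h hv0
        rwa [add_sub_cancel_right] at this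
      · have := Y₁.sub_mem h hu1
        rwa [add_sub_cancel_left] at this
    · exact ⟨v, hv, hv0, hv1⟩
  · exact ⟨u, hu, hu0, hu1⟩

variable (hQ : IsNondegenerateQuadraticForm Q)
include hQ

theorem OrthDec.symm {X Y : Submodule F (ι → F)} (h : OrthDec Q X Y) : OrthDec Q Y X :=
  ⟨by rw [sup_comm]; exact h.sup, by rw [inf_comm]; exact h.inf,
    fun a ha b hb => by rw [pol_symm hQ]; exact h.orth b hb a ha⟩

omit hQ in
theorem OrthDec.exists_decomp {X Y : Submodule F (ι → F)} (h : OrthDec Q X Y) (x : ι → F) :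
    ∃ x₀ ∈ X, ∃ x₁ ∈ Y, x = x₀ + x₁ := by
  have hx : x ∈ X ⊔ Y := by rw [h.sup]; trivial
  obtain ⟨u, hu, v, hv, rfl⟩ := Submodule.mem_sup.mp hx
  exact ⟨u, hu, v, hv, rfl⟩

theorem OrthDec.nd {X Y : Submodule F (ι → F)} (h : OrthDec Q X Y) : NDOn Q X := by
  intro a ha ha0
  obtain ⟨w, hw⟩ := (hQ.nondegenerate a ha0).2
  obtain ⟨w₀, hw₀, w₁, hw₁, rfl⟩ := h.exists_decomp w
  refine ⟨w₀, hw₀, fun h0 => hw ?_⟩
  have : pol Q a (w₀ + w₁) = 0 := by
    rw [pol_add_right hQ, h0, h.orth a ha w₁ hw₁, add_zero]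
  exact this

/-- Pairing lemma within a non-degenerate summand. -/
theorem OrthDec.exists_pair {X Y : Submodule F (ι → F)} (h : OrthDec Q X Y) {S : Submodule F (ι → F)}
    (hS : S ≤ X) {x : ι → F} (hx : x ∈ X) (hxS : x ∉ S) :
    ∃ d ∈ X, (∀ u ∈ S, pol Q u d = 0) ∧ pol Q x d = 1 := by
  obtain ⟨w, hw, hwx⟩ : ∃ w ∈ (polB hQ).orthogonal S, pol Q w x ≠ 0 := by
    by_contra hcon
    push Not at hcon
    apply hxS
    rw [← orth_orth hQ S, mem_orth_iff hQ]
    intro u hu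
    rw [pol_symm hQ]
    exact hcon u hu
  obtain ⟨w₀, hw₀, w₁, hw₁, rfl⟩ := h.exists_decomp w
  have e1 : ∀ u ∈ X, pol Q (w₀ + w₁) u = pol Q w₀ u := by
    intro u hu
    rw [pol_add_left hQ, pol_symm hQ w₁ u, h.orth u hu w₁ hw₁, add_zero]
  have h1 : pol Q w₀ x ≠ 0 := by
    rw [e1 x hx] at hwx
    exact hwx
  have h2 : ∀ u ∈ S, pol Q u w₀ = 0 := by
    intro u hu
    have h3 := (mem_orth_iff hQ).mp hw u hu
    rw [e1 u (hS hu)] at h3
    rw [pol_symm hQ]
    exact h3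
  refine ⟨(pol Q w₀ x)⁻¹ • w₀, X.smul_mem _ hw₀, fun u hu => ?_, ?_⟩
  · rw [pol_smul_right hQ, h2 u hu, mul_zero]
  · rw [pol_smul_right hQ, pol_symm hQ x w₀, inv_mul_cancel₀ h1]

/-- Membership in the perp of a pair. -/
theorem mem_orth_pair {x s u : ι → F} :
    u ∈ (polB hQ).orthogonal (Submodule.span F {x, s}) ↔ pol Q u x = 0 ∧ pol Q u s = 0 := by
  rw [mem_orth_iff hQ]
  constructor
  · intro h
    exact ⟨h x (Submodule.subset_span (by simp)), h s (Submodule.subset_span (by simp))⟩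
  · rintro ⟨h1, h2⟩ v hv
    obtain ⟨a, b, rfl⟩ := Submodule.mem_span_pair.mp hv
    rw [pol_add_right hQ, pol_smul_right hQ, pol_smul_right hQ, h1, h2]
    ring

theorem mem_orth_single {x u : ι → F} :
    u ∈ (polB hQ).orthogonal (Submodule.span F {x}) ↔ pol Q u x = 0 := by
  rw [mem_orth_iff hQ]
  constructor
  · intro h
    exact h x (Submodule.mem_span_singleton_self x)
  · rintro h1 v hv
    obtain ⟨a, rfl⟩ := Submodule.mem_span_singleton.mp hv
    rw [pol_smul_right hQ, h1, mul_zero]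

/-- Splitting off a hyperbolic pair. -/
theorem split {Y : Submodule F (ι → F)} {x s : ι → F} (hx : x ∈ Y) (hs : s ∈ Y) (hsQ : Q s = 0)
    (hxs : pol Q x s ≠ 0) (u : ι → F) (hu : u ∈ Y) :
    ∃ α β : F, u - α • x - β • s ∈ Y ⊓ (polB hQ).orthogonal (Submodule.span F {x, s}) := by
  have hss : pol Q s s = 0 := by rw [pol_self hQ, hsQ, mul_zero]
  have hsx : pol Q s x ≠ 0 := by rwa [pol_symm hQ]
  set α := pol Q u s / pol Q x s with hα
  set β := (pol Q u x - α * pol Q x x) / pol Q s x with hβ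
  refine ⟨α, β, Submodule.mem_inf.mpr ⟨Y.sub_mem (Y.sub_mem hu (Y.smul_mem _ hx)) (Y.smul_mem _ hs), ?_⟩⟩
  rw [mem_orth_pair hQ]
  constructor
  · rw [Eichler.pol_sub_left hQ, Eichler.pol_sub_left hQ, pol_smul_left hQ, pol_smul_left hQ, hβ]
    field_simp
    ring
  · rw [Eichler.pol_sub_left hQ, Eichler.pol_sub_left hQ, pol_smul_left hQ, pol_smul_left hQ, hss, hα]
    field_simp
    ring

/-- Non-degeneracy is inherited by the perp of a hyperbolic pair. -/
theorem nd_perp {Y : Submodule F (ι → F)} (hY : NDOn Q Y) {x s : ι → F} (hx : x ∈ Y) (hs : s ∈ Y)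
    (hsQ : Q s = 0) (hxs : pol Q x s ≠ 0) :
    NDOn Q (Y ⊓ (polB hQ).orthogonal (Submodule.span F {x, s})) := by
  intro u hu hu0
  obtain ⟨u', hu', hne⟩ := hY u hu.1 hu0
  obtain ⟨α, β, hm⟩ := split hQ hx hs hsQ hxs u' hu'
  refine ⟨_, hm, ?_⟩
  have h1 := (mem_orth_pair hQ).mp hu.2
  rw [Eichler.pol_sub_right hQ, Eichler.pol_sub_right hQ, pol_smul_right hQ, pol_smul_right hQ, h1.1, h1.2]
  simpa using hne

/-- Singular vectors outside a subspace. -/
theorem exists_singular_not_mem [Fintype F] (D S : Submodule F (ι → F))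
    (h : Module.finrank F (D ⊓ S : Submodule F (ι → F)) + 3 ≤ Module.finrank F D) :
    ∃ c ∈ D, c ≠ 0 ∧ Q c = 0 ∧ c ∉ S := by
  obtain ⟨C, hC⟩ := Submodule.exists_isCompl (D ⊓ S)
  have h1 : (D ⊓ S) ⊔ (D ⊓ C) = D := by
    rw [inf_comm D C, ← sup_inf_assoc_of_le C (inf_le_left : D ⊓ S ≤ D), hC.sup_eq_top, top_inf_eq]
  have h2 : (D ⊓ S) ⊓ (D ⊓ C) = ⊥ := by
    rw [eq_bot_iff]
    rintro x ⟨hx1, hx2⟩
    have : x ∈ (D ⊓ S) ⊓ C := ⟨hx1, hx2.2⟩
    rwa [hC.inf_eq_bot] at this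
  have h3 := Submodule.finrank_sup_add_finrank_inf_eq (D ⊓ S) (D ⊓ C)
  rw [h1, h2, finrank_bot] at h3
  obtain ⟨p, hp, hp0, hpQ⟩ := exists_singular hQ (D ⊓ C) (by omega)
  refine ⟨p, hp.1, hp0, hpQ, fun hpS => hp0 ?_⟩
  have : p ∈ (D ⊓ S) ⊓ (D ⊓ C) := ⟨⟨hp.1, hpS⟩, hp⟩
  rwa [h2] at this

/-- Hyperbolic partner. -/
theorem exists_partner {X : Submodule F (ι → F)} (hX : NDOn Q X) {e : ι → F} (he : e ∈ X) (he0 : e ≠ 0)
    (heQ : Q e = 0) : ∃ f ∈ X, Q f = 0 ∧ pol Q e f = 1 := by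
  obtain ⟨f₀, hf₀, hne⟩ := hX e he he0
  obtain ⟨f₁, hf₀, h1⟩ : ∃ f₁ ∈ X, pol Q e f₁ = 1 :=
    ⟨(pol Q e f₀)⁻¹ • f₀, X.smul_mem _ hf₀, by rw [pol_smul_right hQ, inv_mul_cancel₀ hne]⟩
  have hee : pol Q e e = 0 := by rw [pol_self hQ, heQ, mul_zero]
  refine ⟨f₁ - Q f₁ • e, X.sub_mem hf₀ (X.smul_mem _ he), ?_, ?_⟩
  · rw [Eichler.Q_sub hQ, hQ.smul, heQ, pol_smul_right hQ, pol_symm hQ f₁ e, h1]
    ring
  · rw [Eichler.pol_sub_right hQ, pol_smul_right hQ, hee, h1]
    ring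

/-- A non-degenerate subspace with a non-zero singular vector is spanned by its singular vectors. -/
theorem span_singular {X : Submodule F (ι → F)} (hX : NDOn Q X) {e : ι → F} (he : e ∈ X) (he0 : e ≠ 0)
    (heQ : Q e = 0) : X ≤ Submodule.span F {v | v ∈ X ∧ Q v = 0} := by
  obtain ⟨f, hf, hfQ, hef⟩ := exists_partner hQ hX he he0 heQ
  have hfe : pol Q f e = 1 := by rw [pol_symm hQ, hef]
  have hee : pol Q e e = 0 := by rw [pol_self hQ, heQ, mul_zero]
  have hff : pol Q f f = 0 := by rw [pol_self hQ, hfQ, mul_zero]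
  set T := Submodule.span F {v | v ∈ X ∧ Q v = 0} with hT
  have heT : e ∈ T := Submodule.subset_span ⟨he, heQ⟩
  have hfT : f ∈ T := Submodule.subset_span ⟨hf, hfQ⟩
  intro x hx
  set y := x - pol Q x f • e - pol Q x e • f with hy
  have hyX : y ∈ X := X.sub_mem (X.sub_mem hx (X.smul_mem _ he)) (X.smul_mem _ hf)
  have hye : pol Q y e = 0 := by
    rw [hy, Eichler.pol_sub_left hQ, Eichler.pol_sub_left hQ, pol_smul_left hQ, pol_smul_left hQ, hee, hfe]
    ring
  have hyf : pol Q y f = 0 := by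
    rw [hy, Eichler.pol_sub_left hQ, Eichler.pol_sub_left hQ, pol_smul_left hQ, pol_smul_left hQ, hef, hff]
    ring
  have hs : Q (y + e - Q y • f) = 0 := by
    rw [Eichler.Q_sub hQ, Q_add hQ, hQ.smul, heQ, hfQ, pol_smul_right hQ, pol_add_left hQ, hyf, hef, hye]
    ring
  have h1 : y + e - Q y • f ∈ T :=
    Submodule.subset_span ⟨X.sub_mem (X.add_mem hyX he) (X.smul_mem _ hf), hs⟩
  have h2 : y ∈ T := by
    have := T.add_mem (T.sub_mem h1 heT) (T.smul_mem (Q y) hfT)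
    have e1 : y + e - Q y • f - e + Q y • f = y := by abel
    rwa [e1] at this
  have e2 : x = y + pol Q x f • e + pol Q x e • f := by
    rw [hy]
    abel
  rw [e2]
  exact T.add_mem (T.add_mem h2 (T.smul_mem _ heT)) (T.smul_mem _ hfT)

variable {hQ}

/-- Irreducibility of the isometry group on a non-degenerate subspace. -/
theorem irr [Fintype F] {Y Y₀ : Submodule F (ι → F)} (hnd : NDOn Q Y) (hle : Y₀ ≤ Y) (h0 : Y₀ ≠ ⊥)
    (hR : ∀ y ∈ Y, Q y ≠ 0 → ∀ x ∈ Y₀, x - ((Q y)⁻¹ * pol Q x y) • y ∈ Y₀)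
    (hE : ∀ s ∈ Y, ∀ b ∈ Y, Q s = 0 → pol Q s b = 0 → ∀ g : GL ι F, Eich Q g s b →
      ∀ x ∈ Y₀, (g : Matrix ι ι F) *ᵥ x ∈ Y₀)
    (hY : Module.finrank F Y = 2 → Fintype.card F ≤ 3 → ∀ y ∈ Y, Q y = 0 → y = 0) : Y₀ = Y := by
  by_contra hne
  obtain ⟨x₀, hx₀, hx₀0⟩ := Submodule.exists_mem_ne_zero_of_ne_bot h0
  set Y₁ := Y ⊓ (polB hQ).orthogonal Y₀ with hY₁
  have hn0 : ¬ Y ≤ Y₀ := fun h => hne (le_antisymm hle h)
  have hn1 : ¬ Y ≤ Y₁ := by
    intro h
    obtain ⟨y', hy', hne'⟩ := hnd x₀ (hle hx₀) hx₀0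
    have h1 := (mem_orth_iff hQ).mp (h hy').2 x₀ hx₀
    rw [pol_symm hQ] at h1
    exact hne' h1
  -- the key property of vectors outside `Y₀ ∪ Y₁`
  have hC : ∀ y ∈ Y, y ∉ Y₀ → ∀ x ∈ Y₀, pol Q x y ≠ 0 → Q y = 0 := by
    intro y hy hy0 x hx hxy
    by_contra hQy
    have h1 := hR y hy hQy x hx
    have h2 := Y₀.sub_mem hx h1
    rw [sub_sub_cancel] at h2
    have h3 : (Q y)⁻¹ * pol Q x y ≠ 0 := mul_ne_zero (inv_ne_zero hQy) hxy
    exact hy0 ((Submodule.smul_mem_iff _ h3).mp h2)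
  obtain ⟨s, hs, hs0, hs1⟩ := exists_not_mem_two hn0 hn1
  obtain ⟨x, hx, hxs⟩ : ∃ x ∈ Y₀, pol Q x s ≠ 0 := by
    by_contra hcon
    push Not at hcon
    apply hs1
    refine Submodule.mem_inf.mpr ⟨hs, (mem_orth_iff hQ).mpr fun u hu => ?_⟩
    rw [pol_symm hQ]
    exact hcon u hu
  have hsQ : Q s = 0 := hC s hs hs0 x hx hxs
  have hxY := hle hx
  set E := Y ⊓ (polB hQ).orthogonal (Submodule.span F {x, s}) with hEdef
  have hEm : ∀ {b}, b ∈ E → b ∈ Y ∧ pol Q b x = 0 ∧ pol Q b s = 0 := by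
    intro b hb
    exact ⟨hb.1, (mem_orth_pair hQ).mp hb.2⟩
  have hE1 : ∀ b ∈ E, b + Q b • s ∈ Y₀ := by
    intro b hb
    obtain ⟨hbY, hbx, hbs⟩ := hEm hb
    have hsb : pol Q s b = 0 := by rw [pol_symm hQ]; exact hbs
    obtain ⟨g, hg⟩ := exists_eich hQ hsQ hsb
    have h1 := hE s hs b hbY hsQ hsb g hg x hx
    rw [hg x, pol_symm hQ x b, hbx] at h1
    have h2 := Y₀.sub_mem hx h1
    have e : x - (x + (0 : F) • s - pol Q x s • b - (Q b * pol Q x s) • s) = pol Q x s • (b + Q b • s) := by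
      module
    rw [e] at h2
    exact (Submodule.smul_mem_iff _ hxs).mp h2
  have hE2 : ∀ b ∈ E, ∀ b' ∈ E, pol Q b b' = 0 := by
    intro b hb b' hb'
    have h1 := hE1 _ (E.add_mem hb hb')
    have h2 := Y₀.sub_mem (Y₀.sub_mem h1 (hE1 b hb)) (hE1 b' hb')
    rw [Q_add hQ] at h2
    have e : b + b' + (Q b + Q b' + pol Q b b') • s - (b + Q b • s) - (b' + Q b' • s) = pol Q b b' • s := by
      module
    rw [e] at h2
    by_contra hb0
    exact hs0 ((Submodule.smul_mem_iff _ hb0).mp h2)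
  have hEb : E = ⊥ := by
    rw [eq_bot_iff]
    intro u hu
    by_contra hu0
    obtain ⟨u', hu', hne'⟩ := nd_perp hQ hnd hxY hs hsQ hxs u hu hu0
    exact hne' (hE2 u hu u' hu')
  have hYle : Y ≤ Submodule.span F {x, s} := by
    intro u hu
    obtain ⟨α, β, hm⟩ := split hQ hxY hs hsQ hxs u hu
    rw [← hEdef, hEb, Submodule.mem_bot] at hm
    rw [Submodule.mem_span_pair]
    refine ⟨α, β, ?_⟩
    have e : α • x + β • s = u - (u - α • x - β • s) := by abel
    rw [e, hm, sub_zero]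
  have hd2 : Module.finrank F Y = 2 := by
    have h1 : Module.finrank F Y ≤ 2 := (Submodule.finrank_mono hYle).trans (finrank_pair_le x s)
    have h2 : Module.finrank F Y₀ < Module.finrank F Y :=
      Submodule.finrank_lt_finrank_of_lt (lt_of_le_of_ne hle hne)
    have h3 : 0 < Module.finrank F Y₀ := Module.finrank_pos_iff_exists_ne_zero.mpr ⟨⟨x₀, hx₀⟩, fun h => hx₀0 (congrArg Subtype.val h)⟩
    omega
  by_cases hq : Fintype.card F ≤ 3
  · have := hY hd2 hq s hs hsQ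
    exact hs0 (this ▸ Y₀.zero_mem)
  · -- `q ≥ 4`
    push Not at hq
    classical
    set t₀ : F := -(pol Q x x) / pol Q x s with ht₀
    have hcard : 1 < ((Finset.univ : Finset F) \ {0, t₀}).card := by
      have h1 := Finset.le_card_sdiff ({0, t₀} : Finset F) (Finset.univ : Finset F)
      have h2 : ({0, t₀} : Finset F).card ≤ 2 := Finset.card_le_two
      rw [Finset.card_univ] at h1
      omega
    obtain ⟨t₁, ht₁, t₂, ht₂, ht12⟩ := Finset.one_lt_card.mp hcard
    have hprop : ∀ t ∈ ((Finset.univ : Finset F) \ {0, t₀}), Q x + t * pol Q x s = 0 := by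
      intro t ht
      have ht' : t ≠ 0 ∧ t ≠ t₀ := by
        simpa using ht
      have hy : x + t • s ∈ Y := Y.add_mem hxY (Y.smul_mem _ hs)
      have hy0 : x + t • s ∉ Y₀ := by
        intro h
        have h2 := Y₀.sub_mem h hx
        rw [add_sub_cancel_left] at h2
        exact hs0 ((Submodule.smul_mem_iff _ ht'.1).mp h2)
      have hxy : pol Q x (x + t • s) ≠ 0 := by
        rw [pol_add_right hQ, pol_smul_right hQ]
        intro h3
        apply ht'.2
        rw [ht₀]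
        field_simp
        linear_combination h3
      have h4 := hC _ hy hy0 x hx hxy
      rw [Q_add hQ, hQ.smul, hsQ, pol_smul_right hQ] at h4
      linear_combination h4
    have h5 := hprop t₁ ht₁
    have h6 := hprop t₂ ht₂
    have h7 : (t₁ - t₂) * pol Q x s = 0 := by linear_combination h5 - h6
    rcases mul_eq_zero.mp h7 with h8 | h8
    · exact ht12 (sub_eq_zero.mp h8)
    · exact hxs h8

/-- The subgroup contains the Eichler transformations of `X`. -/
def RH (Q : (ι → F) → F) (M : Subgroup (GL ι F)) (X : Submodule F (ι → F)) : Prop :=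
  ∀ a ∈ X, ∀ b ∈ X, Q a = 0 → pol Q a b = 0 → ∀ g : GL ι F, Eich Q g a b → g ∈ M

include hQ in
/-- One step of root calculus. -/
theorem step' {M : Subgroup (GL ι F)} {X Y : Submodule F (ι → F)} (hdec : OrthDec Q X Y)
    (hR : RH Q M X) {p c z p₀ p₁ z₀ z₁ : ι → F} {hp : Q p = 0}
    (hp₀ : p₀ ∈ X) (hp₁ : p₁ ∈ Y) (hpe : p = p₀ + p₁) (hz₀ : z₀ ∈ X) (hz₁ : z₁ ∈ Y)
    (hze : z = z₀ + z₁) (hc : c ∈ X) (hcQ : Q c = 0) (hpc : pol Q p₀ c = 0) (hz : z ∈ UU hQ M p hp)
    (hzc : pol Q z₀ c = 0) (hn : z₀ ∉ Submodule.span F {c, p₀}) : c ∈ UU hQ M p hp := by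
  have hYle : Submodule.span F {c, p₀} ≤ X := by
    rw [Submodule.span_le]
    rintro x (rfl | rfl)
    · exact hc
    · exact hp₀
  obtain ⟨d, hd, hdY, hdz⟩ := hdec.exists_pair hQ hYle hz₀ hn
  have hcd : pol Q c d = 0 := hdY c (Submodule.subset_span (by simp))
  have hp₀d : pol Q p₀ d = 0 := hdY p₀ (Submodule.subset_span (by simp))
  obtain ⟨k, hk⟩ := exists_eich hQ hcQ hcd
  have hkM := hR c hc d hd hcQ hcd k hk
  have hY0 : ∀ {u v}, u ∈ Y → v ∈ X → pol Q u v = 0 := fun {u v} hu hv => by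
    rw [pol_symm hQ]
    exact hdec.orth v hv u hu
  refine rule1 (hQ := hQ) hcQ hk hkM hcd ?_ ?_ hz ?_ ?_
  · rw [hpe, pol_add_left hQ, hpc, hY0 hp₁ hc, add_zero]
  · rw [hpe, pol_add_left hQ, hp₀d, hY0 hp₁ hd, add_zero]
  · rw [hze, pol_add_left hQ, hzc, hY0 hz₁ hc, add_zero]
  · rw [hze, pol_add_left hQ, hdz, hY0 hz₁ hd, add_zero]
    exact one_ne_zero

include hQ in
/-- A root with centre in `X` and parameter outside `X` makes the centre full. -/
theorem full_of_not_mem [Fintype F] {M : Subgroup (GL ι F)} {X Y : Submodule F (ι → F)}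
    (hdec : OrthDec Q X Y) (hRX : RH Q M X) (hRY : RH Q M Y)
    (hτ : ∀ a ∈ X, ∀ y ∈ Y, Q a = Q y → Q y ≠ 0 → rf hQ y * rf hQ a ∈ M)
    (hX : 5 ≤ Module.finrank F X)
    (hY : Module.finrank F Y = 2 → Fintype.card F ≤ 3 → ∀ y ∈ Y, Q y = 0 → y = 0)
    {c z : ι → F} (hc : c ∈ X) (hcQ : Q c = 0) (hc0 : c ≠ 0) (hz : z ∈ UU hQ M c hcQ) (hzX : z ∉ X) :
    Full Q M c := by
  have hXY : ∀ {u v}, u ∈ Y → v ∈ X → pol Q u v = 0 := fun {u v} hu hv => by
    rw [pol_symm hQ]
    exact hdec.orth v hv u hu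
  have hXnd := hdec.nd hQ
  have hYnd := hdec.symm hQ |>.nd hQ
  -- `X ∩ c^⊥ ≤ U`
  have hXc : ∀ b ∈ X, pol Q c b = 0 → b ∈ UU hQ M c hcQ := by
    intro b hb hcb
    refine ⟨hcb, fun t g hg => ?_⟩
    refine hRX c hc _ (X.smul_mem _ hb) hcQ ?_ g hg
    rw [pol_smul_right hQ, hcb, mul_zero]
  -- a vector of any given norm in `X ∩ c^⊥`
  obtain ⟨f, hf, hfQ, hcf⟩ := exists_partner hQ hXnd hc hc0 hcQ
  set E := X ⊓ (polB hQ).orthogonal (Submodule.span F {f, c}) with hEdef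
  have hfc : pol Q f c ≠ 0 := by
    rw [pol_symm hQ, hcf]
    exact one_ne_zero
  have hEnd : NDOn Q E := nd_perp hQ hXnd hf hc hcQ hfc
  have hEd : 3 ≤ Module.finrank F E := by
    have h1 : Module.finrank F X ≤ Module.finrank F E + Module.finrank F (Submodule.span F {f, c}) :=
      finrank_inf_orth_ge (hQ := hQ) X _
    have h2 := finrank_pair_le f c
    omega
  obtain ⟨e, heE, he0, heQ⟩ := exists_singular hQ E hEd
  obtain ⟨e', he'E, hee'⟩ := hEnd e heE he0
  have hEm : ∀ {b}, b ∈ E → b ∈ X ∧ pol Q b c = 0 := by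
    intro b hb
    exact ⟨hb.1, ((mem_orth_pair hQ).mp hb.2).2⟩
  have hnorm : ∀ v : F, ∃ a ∈ X, pol Q a c = 0 ∧ Q a = v := by
    intro v
    refine ⟨e' + ((v - Q e') / pol Q e e') • e, ?_, ?_, ?_⟩
    · exact X.add_mem (hEm he'E).1 (X.smul_mem _ (hEm heE).1)
    · rw [pol_add_left hQ, pol_smul_left hQ, (hEm he'E).2, (hEm heE).2]
      ring
    · rw [Q_add hQ, hQ.smul, heQ, pol_smul_right hQ, pol_symm hQ e' e]
      field_simp
      ring
  -- the invariant subspace
  set Y₀ := Y ⊓ UU hQ M c hcQ with hY₀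
  have hY0ne : Y₀ ≠ ⊥ := by
    obtain ⟨z₀, hz₀, z₁, hz₁, hze⟩ := hdec.exists_decomp z
    have hz10 : z₁ ≠ 0 := by
      rintro rfl
      apply hzX
      rw [hze, add_zero]
      exact hz₀
    have hcz₀ : pol Q c z₀ = 0 := by
      have h1 : pol Q c z = 0 := hz.1
      rw [hze, pol_add_right hQ, hdec.orth c hc z₁ hz₁, add_zero] at h1
      exact h1
    have h2 := Submodule.sub_mem _ hz (hXc z₀ hz₀ hcz₀)
    have e1 : z - z₀ = z₁ := by
      rw [hze]
      abel
    rw [e1] at h2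
    intro hbot
    have : z₁ ∈ Y₀ := ⟨hz₁, h2⟩
    rw [hbot, Submodule.mem_bot] at this
    exact hz10 this
  have hirr : Y₀ = Y := by
    refine irr (hQ := hQ) hYnd inf_le_left hY0ne ?_ ?_ hY
    · intro y hy hQy x hx
      obtain ⟨a, ha, hac, haQ⟩ := hnorm (Q y)
      have h1 := hτ a ha y hy haQ hQy
      have h2 : rf hQ y * rf hQ a ∈ isometryGroup F Q :=
        (isometryGroup F Q).mul_mem (rf_mem hQ y) (rf_mem hQ a)
      have h3 : ((rf hQ y * rf hQ a : GL ι F) : Matrix ι ι F) *ᵥ c = c := by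
        have ha1 : (rf hQ a : Matrix ι ι F) *ᵥ c = c := by
          rw [rf_mulVec, pol_symm hQ c a, hac]
          simp
        rw [Units.val_mul, ← Matrix.mulVec_mulVec, ha1, rf_mulVec, hdec.orth c hc y hy]
        simp
      have h4 : ((rf hQ y * rf hQ a : GL ι F) : Matrix ι ι F) *ᵥ x = x - ((Q y)⁻¹ * pol Q x y) • y := by
        have ha1 : (rf hQ a : Matrix ι ι F) *ᵥ x = x := by
          rw [rf_mulVec, hXY hx.1 ha]
          simp
        rw [Units.val_mul, ← Matrix.mulVec_mulVec, ha1, rf_mulVec]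
      have h5 := UU_fix hx.2 h1 h2 h3
      rw [h4] at h5
      exact ⟨Y.sub_mem hx.1 (Y.smul_mem _ hy), h5⟩
    · intro s hs b hb hsQ hsb g hg x hx
      have hgM := hRY s hs b hb hsQ hsb g hg
      have hgI := hg.mem_isometry hQ hsQ hsb
      have hgc : (g : Matrix ι ι F) *ᵥ c = c := by
        rw [hg c, hdec.orth c hc b hb, hdec.orth c hc s hs]
        simp
      have h5 := UU_fix hx.2 hgM hgI hgc
      refine ⟨?_, h5⟩
      rw [hg x]
      exact Y.sub_mem (Y.sub_mem (Y.add_mem hx.1 (Y.smul_mem _ hs)) (Y.smul_mem _ hb)) (Y.smul_mem _ hs)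
  rw [full_iff (hQ := hQ) (hp := hcQ)]
  intro b hb
  obtain ⟨b₀, hb₀, b₁, hb₁, rfl⟩ := hdec.exists_decomp b
  have hcb₀ : pol Q c b₀ = 0 := by
    rw [pol_add_right hQ, hdec.orth c hc b₁ hb₁, add_zero] at hb
    exact hb
  refine Submodule.add_mem _ (hXc b₀ hb₀ hcb₀) ?_
  rw [← hirr] at hb₁
  exact hb₁.2

include hQ in
/-- A full point in `X` gives everything. -/
theorem finish [Fintype F] (hn : 7 ≤ Fintype.card ι) {M : Subgroup (GL ι F)} {X Y : Submodule F (ι → F)}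
    (hdec : OrthDec Q X Y) (hRX : RH Q M X) (hX : 5 ≤ Module.finrank F X)
    {c : ι → F} (hc : c ∈ X) (hcQ : Q c = 0) (hc0 : c ≠ 0) (hF : Full Q M c) : omegaGL Q ≤ M := by
  have hXnd := hdec.nd hQ
  obtain ⟨f, hf, hfQ, hcf⟩ := exists_partner hQ hXnd hc hc0 hcQ
  set E := X ⊓ (polB hQ).orthogonal (Submodule.span F {f, c}) with hEdef
  have hfc : pol Q f c = 1 := by
    rw [pol_symm hQ, hcf]
  have hEnd : NDOn Q E := nd_perp hQ hXnd hf hc hcQ (by rw [hfc]; exact one_ne_zero)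
  have hEd : 3 ≤ Module.finrank F E := by
    have h1 : Module.finrank F X ≤ Module.finrank F E + Module.finrank F (Submodule.span F {f, c}) :=
      finrank_inf_orth_ge (hQ := hQ) X _
    have h2 := finrank_pair_le f c
    omega
  obtain ⟨e, heE, he0, -⟩ := exists_singular hQ E hEd
  obtain ⟨e', he'E, hee'⟩ := hEnd e heE he0
  -- a non-singular vector in `E`
  obtain ⟨r, hrE, hrQ⟩ : ∃ r ∈ E, Q r ≠ 0 := by
    by_contra hcon
    push Not at hcon
    apply hee'
    have h1 := hcon _ (E.add_mem heE he'E)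
    rw [Q_add hQ, hcon e heE, hcon e' he'E] at h1
    simpa using h1
  have hr := (mem_orth_pair hQ).mp hrE.2
  have hfr : pol Q f r = 0 := by rw [pol_symm hQ]; exact hr.1
  obtain ⟨k, hk⟩ := exists_eich hQ hfQ hfr
  have hkM := hRX f hf r hrE.1 hfQ hfr k hk
  have hkI := hk.mem_isometry hQ hfQ hfr
  have hF' := hF.conj hkM hkI
  have hcQ' : Q ((k : Matrix ι ι F) *ᵥ c) = 0 := by
    rw [(mem_isometryGroup_iff Q k).mp hkI, hcQ]
  refine omega_le_of_full hQ hn hcQ hcQ' hF hF' ?_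
  have h9 : pol Q ((k : Matrix ι ι F) *ᵥ c) c = - Q r := by
    rw [hk c, pol_sub_left hQ, pol_sub_left hQ, pol_add_left hQ, pol_smul_left hQ, pol_smul_left hQ,
      pol_smul_left hQ, hr.2, hfc, pol_singular hQ hcQ, hcf, pol_symm hQ c r, hr.2]
    ring
  rw [h9]
  exact neg_ne_zero.mpr hrQ

/-- The main theorem on stabilisers of non-degenerate subspaces. -/
theorem c1_isMaximalIn [Fintype F] (hn : 13 ≤ Fintype.card ι) {A B : Submodule F (ι → F)}
    (hdec : OrthDec Q A B) (hdim : Module.finrank F B ≤ Module.finrank F A) (hB0 : B ≠ ⊥)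
    (hY : Module.finrank F B = 2 → Fintype.card F ≤ 3 → ∀ y ∈ B, Q y = 0 → y = 0)
    (hsw : ∀ g ∈ omegaGL Q, A.map (Matrix.toLin' (g : Matrix ι ι F)) ≠ B) :
    IsMaximalIn (omegaGL Q) (subspaceStabilizer A ⊓ omegaGL Q) := by
  have hn7 : 7 ≤ Fintype.card ι := by omega
  have hdsum : Module.finrank F A + Module.finrank F B = Fintype.card ι := by
    have h1 := Submodule.finrank_sup_add_finrank_inf_eq A B
    rw [hdec.sup, hdec.inf, finrank_bot, finrank_top, finrank_total] at h1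
    omega
  have hdA : 7 ≤ Module.finrank F A := by omega
  have hdec' := hdec.symm hQ
  have hstabX : ∀ {a b g}, a ∈ A → b ∈ A → Eich Q g a b → g ∈ subspaceStabilizer A := by
    intro a b g ha hb hg
    apply mem_subspaceStabilizer_of_forall_mem
    intro x hx
    rw [hg x]
    exact A.sub_mem (A.sub_mem (A.add_mem hx (A.smul_mem _ ha)) (A.smul_mem _ hb)) (A.smul_mem _ ha)
  have hstabY : ∀ {a b g}, a ∈ B → b ∈ B → Eich Q g a b → g ∈ subspaceStabilizer A := by
    intro a b g ha hb hg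
    apply mem_subspaceStabilizer_of_forall_mem
    intro x hx
    rw [hg x, hdec.orth x hx a ha, hdec.orth x hx b hb]
    simpa using hx
  have hrfS : ∀ {v : ι → F}, (v ∈ A ∨ v ∈ B) → ∀ x ∈ A, (rf hQ v : Matrix ι ι F) *ᵥ x ∈ A := by
    intro v hv x hx
    rw [rf_mulVec]
    rcases hv with hv | hv
    · exact A.sub_mem hx (A.smul_mem _ hv)
    · rw [hdec.orth x hx v hv]
      simpa using hx
  have hτS : ∀ {a y : ι → F}, (a ∈ A ∨ a ∈ B) → (y ∈ A ∨ y ∈ B) → Q a = Q y → Q y ≠ 0 →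
      rf hQ y * rf hQ a ∈ subspaceStabilizer A ⊓ omegaGL Q := by
    intro a y ha hy hay hQy
    refine ⟨?_, rf_mul_mem_omega hQ hn7 hay rfl hQy⟩
    apply mem_subspaceStabilizer_of_forall_mem
    intro x hx
    rw [Units.val_mul, ← Matrix.mulVec_mulVec]
    exact hrfS hy _ (hrfS ha x hx)
  refine isMaximalIn_of_forall ?_ ?_
  · -- strictness
    refine lt_of_le_of_ne inf_le_right ?_
    intro heq
    have hsub : omegaGL Q ≤ subspaceStabilizer A := by
      rw [← heq]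
      exact inf_le_left
    obtain ⟨c, hc, hc0, hcQ⟩ := exists_singular hQ A (by omega)
    obtain ⟨b, hb, hb0⟩ := Submodule.exists_mem_ne_zero_of_ne_bot hB0
    have hcb := hdec.orth c hc b hb
    obtain ⟨g, hg⟩ := exists_eich hQ hcQ hcb
    have hgO := hg.mem_omega hQ hn7 hcQ hcb
    obtain ⟨x, hx, hxc⟩ := hdec.nd hQ c hc hc0
    have hx' : pol Q c ((pol Q c x)⁻¹ • x) = 1 := by
      rw [pol_smul_right hQ, inv_mul_cancel₀ hxc]
    have hxA : (pol Q c x)⁻¹ • x ∈ A := A.smul_mem _ hx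
    have h1 := (mem_subspaceStabilizer_iff_forall_mem _ g).mp (hsub hgO) _ hxA
    rw [hg _, hdec.orth _ hxA b hb, pol_symm hQ _ c, hx'] at h1
    simp only [zero_smul, add_zero, one_smul, mul_one] at h1
    have h2 := A.sub_mem hxA h1
    have e : (pol Q c x)⁻¹ • x - ((pol Q c x)⁻¹ • x - b - Q b • c) = b + Q b • c := by abel
    rw [e] at h2
    have h3 := A.sub_mem h2 (A.smul_mem (Q b) hc)
    rw [add_sub_cancel_right] at h3
    have h4 : b ∈ A ⊓ B := ⟨h3, hb⟩
    rw [hdec.inf, Submodule.mem_bot] at h4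
    exact hb0 h4
  · intro M hHM hMK g hgM hgH
    have hgO : g ∈ omegaGL Q := hMK hgM
    have hgI := omegaGL_le_isometryGroup Q hgO
    have hgS : g ∉ subspaceStabilizer A := fun h => hgH ⟨h, hgO⟩
    have hRA : RH Q M A := fun a ha b hb haQ hab h hh =>
      hHM ⟨hstabX ha hb hh, hh.mem_omega hQ hn7 haQ hab⟩
    have hRB : RH Q M B := fun a ha b hb haQ hab h hh =>
      hHM ⟨hstabY ha hb hh, hh.mem_omega hQ hn7 haQ hab⟩
    have hτA : ∀ a ∈ A, ∀ y ∈ B, Q a = Q y → Q y ≠ 0 → rf hQ y * rf hQ a ∈ M :=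
      fun a ha y hy hay hQy => hHM (hτS (Or.inl ha) (Or.inr hy) hay hQy)
    have hτB : ∀ a ∈ B, ∀ y ∈ A, Q a = Q y → Q y ≠ 0 → rf hQ y * rf hQ a ∈ M :=
      fun a ha y hy hay hQy => hHM (hτS (Or.inr ha) (Or.inl hy) hay hQy)
    have hYA : Module.finrank F A = 2 → Fintype.card F ≤ 3 → ∀ y ∈ A, Q y = 0 → y = 0 := by
      intro h
      omega
    set A' := A.map (Matrix.toLin' (g : Matrix ι ι F)) with hA'
    have hA'd : Module.finrank F A' = Module.finrank F A := finrank_map_toLin' g A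
    have hA'A : A' ≠ A := fun h => hgS ((mem_subspaceStabilizer_iff_map_eq _ g).mpr h)
    have hA'B : A' ≠ B := hsw g hgO
    -- roots of `A'`
    have hU : ∀ {p' : ι → F} (hp' : Q p' = 0), p' ∈ A' → ∀ z ∈ A', pol Q p' z = 0 →
        z ∈ UU hQ M p' hp' := by
      rintro p' hp' ⟨p₀, hp₀, rfl⟩ z ⟨z₀, hz₀, rfl⟩ hz
      simp only [Matrix.toLin'_apply] at hp' hz ⊢
      rw [pol_isometry g hgI] at hz
      have hp₀Q : Q p₀ = 0 := by
        rwa [(mem_isometryGroup_iff Q g).mp hgI] at hp'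
      have hb : z₀ ∈ UU hQ M p₀ hp₀Q := by
        refine ⟨hz, fun t h hh => ?_⟩
        refine hRA p₀ hp₀ _ (A.smul_mem _ hz₀) hp₀Q ?_ h hh
        rw [pol_smul_right hQ, hz, mul_zero]
      exact UU_conj hb hgM hgI hp'
    -- `A'` is orthogonally complemented
    have hA'nd : NDOn Q A' := by
      rintro _ ⟨a, ha, rfl⟩ ha0
      simp only [Matrix.toLin'_apply] at ha0 ⊢
      have ha0' : a ≠ 0 := by
        rintro rfl
        exact ha0 (by simp)
      obtain ⟨a', ha', hne⟩ := hdec.nd hQ a ha ha0'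
      refine ⟨(g : Matrix ι ι F) *ᵥ a', ⟨a', ha', by simp⟩, ?_⟩
      rwa [pol_isometry g hgI]
    obtain ⟨e', he', he'0, he'Q⟩ := exists_singular hQ A' (by omega)
    have hspan := span_singular hQ hA'nd he' he'0 he'Q
    -- the dichotomy
    by_cases hcase : ∃ p' ∈ A', Q p' = 0 ∧ p' ∉ A ∧ p' ∉ B
    · obtain ⟨p', hp'A', hp'Q, hp'A, hp'B⟩ := hcase
      obtain ⟨pA, hpA, pB, hpB, hpe⟩ := hdec.exists_decomp p'
      set T := A' ⊓ (polB hQ).orthogonal (Submodule.span F {p'}) with hT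
      have hTd : Module.finrank F A' ≤ Module.finrank F T + 1 := by
        have h1 : Module.finrank F A' ≤ Module.finrank F T + Module.finrank F (Submodule.span F {p'}) :=
          finrank_inf_orth_ge (hQ := hQ) A' _
        have h2 := finrank_single_le (F := F) p'
        omega
      have hTm : ∀ {z}, z ∈ T → z ∈ A' ∧ pol Q p' z = 0 := by
        intro z hz
        refine ⟨hz.1, ?_⟩
        rw [pol_symm hQ]
        exact (mem_orth_single hQ).mp hz.2
      have hT_U : ∀ {z}, z ∈ T → z ∈ UU hQ M p' hp'Q := fun {z} hz =>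
        hU hp'Q hp'A' z (hTm hz).1 (hTm hz).2
      by_cases hsub : ∃ z ∈ T, ∃ zA ∈ A, ∃ zB ∈ B, z = zA + zB ∧ zA ∉ Submodule.span F {pA}
      · -- first alternative: `X = A`
        obtain ⟨z, hzT, zA, hzA, zB, hzB, hze, hzn⟩ := hsub
        set D := A ⊓ (polB hQ).orthogonal (Submodule.span F {pA, zA}) with hD
        have hDd : Module.finrank F A ≤ Module.finrank F D + Module.finrank F (Submodule.span F {pA, zA}) :=
          finrank_inf_orth_ge (hQ := hQ) A _
        have h2 := finrank_pair_le pA zA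
        have h3 : Module.finrank F (D ⊓ Submodule.span F {zA, pA} : Submodule F (ι → F)) ≤ 2 :=
          (Submodule.finrank_mono inf_le_right).trans (finrank_pair_le zA pA)
        obtain ⟨c, hcD, hc0, hcQ, hcn⟩ := exists_singular_not_mem hQ D (Submodule.span F {zA, pA}) (by omega)
        have hcA := hcD.1
        have hco := (mem_orth_pair hQ).mp hcD.2
        have hcU : c ∈ UU hQ M p' hp'Q :=
          step' (hQ := hQ) hdec hRA hpA hpB hpe hzA hzB hze hcA hcQ (by rw [pol_symm hQ]; exact hco.1) (hT_U hzT)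
            (by rw [pol_symm hQ]; exact hco.2) (exch hzn hcn)
        have hpU : p' ∈ UU hQ M c hcQ := UU_symm hcU
        have hF := full_of_not_mem (hQ := hQ) hdec hRA hRB hτA (by omega) hY hcA hcQ hc0 hpU hp'A
        exact finish (hQ := hQ) hn7 hdec hRA (by omega) hcA hcQ hc0 hF
      · -- second alternative: `X = B`
        push Not at hsub
        have hle : T ≤ (T ⊓ B) ⊔ Submodule.span F {p'} := by
          intro z hz
          obtain ⟨zA, hzA, zB, hzB, hze⟩ := hdec.exists_decomp z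
          have h1 := hsub z hz zA hzA zB hzB hze
          obtain ⟨s, hs⟩ := Submodule.mem_span_singleton.mp h1
          have hp'T : p' ∈ T := Submodule.mem_inf.mpr ⟨hp'A', (mem_orth_single hQ).mpr (pol_singular hQ hp'Q)⟩
          have h2 : z - s • p' ∈ T ⊓ B := by
            refine Submodule.mem_inf.mpr ⟨T.sub_mem hz (T.smul_mem _ hp'T), ?_⟩
            have e : z - s • p' = zB - s • pB := by
              rw [hze, hpe, smul_add, hs]
              abel
            rw [e]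
            exact B.sub_mem hzB (B.smul_mem _ hpB)
          have e2 : z = (z - s • p') + s • p' := by abel
          rw [e2]
          exact Submodule.add_mem_sup h2 (Submodule.smul_mem _ _ (Submodule.mem_span_singleton_self p'))
        have hTB : Module.finrank F T ≤ Module.finrank F (T ⊓ B : Submodule F (ι → F)) + 1 := by
          have h1 := Submodule.finrank_mono hle
          have h2 := Submodule.finrank_add_le_finrank_add_finrank (T ⊓ B) (Submodule.span F {p'})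
          have h3 := finrank_single_le (F := F) p'
          omega
        have hTBle : Module.finrank F (T ⊓ B : Submodule F (ι → F)) ≤ Module.finrank F B :=
          Submodule.finrank_mono inf_le_right
        have hdB6 : 6 ≤ Module.finrank F B := by omega
        set D := B ⊓ (polB hQ).orthogonal (Submodule.span F {pB}) with hD
        have hDd : Module.finrank F B ≤ Module.finrank F D + Module.finrank F (Submodule.span F {pB}) :=
          finrank_inf_orth_ge (hQ := hQ) B _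
        have h2 := finrank_single_le (F := F) pB
        have h3 : Module.finrank F (D ⊓ Submodule.span F {pB} : Submodule F (ι → F)) ≤ 1 :=
          (Submodule.finrank_mono inf_le_right).trans (finrank_single_le pB)
        obtain ⟨c, hcD, hc0, hcQ, hcn⟩ := exists_singular_not_mem hQ D (Submodule.span F {pB}) (by omega)
        have hcB := hcD.1
        have hco := (mem_orth_single hQ).mp hcD.2
        set T' := (T ⊓ B) ⊓ (polB hQ).orthogonal (Submodule.span F {c}) with hT'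
        have hT'd : Module.finrank F (T ⊓ B : Submodule F (ι → F)) ≤ Module.finrank F T' +
            Module.finrank F (Submodule.span F {c}) := finrank_inf_orth_ge (hQ := hQ) (T ⊓ B) _
        have h4 := finrank_single_le (F := F) c
        obtain ⟨z, hzT', hzn⟩ : ∃ z ∈ T', z ∉ Submodule.span F {c, pB} :=
          exists_not_mem (lt_of_le_of_lt (finrank_pair_le c pB) (by omega))
        have hzc := (mem_orth_single hQ).mp hzT'.2
        have hcU : c ∈ UU hQ M p' hp'Q := by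
          refine step' (hQ := hQ) (p₀ := pB) (p₁ := pA) (z₀ := z) (z₁ := 0) hdec' hRB hpB hpA (by rw [hpe, add_comm]) hzT'.1.2
            A.zero_mem (add_zero _).symm hcB hcQ (by rw [pol_symm hQ]; exact hco) (hT_U hzT'.1.1) hzc hzn
        have hpU : p' ∈ UU hQ M c hcQ := UU_symm hcU
        have hF := full_of_not_mem (hQ := hQ) hdec' hRB hRA hτB (by omega) hYA hcB hcQ hc0 hpU hp'B
        exact finish (hQ := hQ) hn7 hdec' hRB (by omega) hcB hcQ hc0 hF
    · -- all singular vectors of `A'` lie in `A` or `B`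
      exfalso
      push Not at hcase
      by_cases h1 : ∃ p₁ ∈ A', Q p₁ = 0 ∧ p₁ ∉ B
      · by_cases h2 : ∃ p₂ ∈ A', Q p₂ = 0 ∧ p₂ ∉ A
        · obtain ⟨p₁, hp₁, hp₁Q, hp₁B⟩ := h1
          obtain ⟨p₂, hp₂, hp₂Q, hp₂A⟩ := h2
          have hp₁A : p₁ ∈ A := by
            by_contra hc
            exact hp₁B (hcase p₁ hp₁ hp₁Q hc)
          have hp₂B : p₂ ∈ B := hcase p₂ hp₂ hp₂Q hp₂A
          have h3 : Q (p₁ + p₂) = 0 := by
            rw [Q_add hQ, hp₁Q, hp₂Q, hdec.orth p₁ hp₁A p₂ hp₂B]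
            ring
          by_cases h4 : p₁ + p₂ ∈ A
          · apply hp₂A
            have := A.sub_mem h4 hp₁A
            rwa [add_sub_cancel_left] at this
          · apply hp₁B
            have := B.sub_mem (hcase _ (A'.add_mem hp₁ hp₂) h3 h4) hp₂B
            rwa [add_sub_cancel_right] at this
        · push Not at h2
          have hle : A' ≤ A := by
            refine hspan.trans ?_
            rw [Submodule.span_le]
            rintro v ⟨hv, hvQ⟩
            exact h2 v hv hvQ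
          exact hA'A (Submodule.eq_of_le_of_finrank_eq hle hA'd)
      · push Not at h1
        have hle : A' ≤ B := by
          refine hspan.trans ?_
          rw [Submodule.span_le]
          rintro v ⟨hv, hvQ⟩
          exact h1 v hv hvQ
        exact hA'B (Submodule.eq_of_le_of_finrank_le hle (by omega))

end Cfsg.Agent.Lib.GeoOmega.Nondeg
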