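/-
Stabilisers of non-degenerate subspaces: the form needed for the statements.
-/
import Cfsg.Agent.Lib.GeoOmega.Nondeg
set_option autoImplicit false

namespace Cfsg.Agent.Lib.GeoOmega.NondegW

open Cfsg Cfsg.Geo Cfsg.Agent.Lib.Geo.Basic Cfsg.Agent.Lib.Geo.Parabolic Cfsg.Agent.Lib.Geo.Centres
open Cfsg.Agent.Lib.Geo.Polar Cfsg.Agent.Lib.Geo.QForm
open Cfsg.Agent.Lib.QuadFn Cfsg.Agent.Lib.GeoOmega.Basic Cfsg.Agent.Lib.GeoOmega.Planes
open Cfsg.Agent.Lib.GeoOmega.Eichler Cfsg.Agent.Lib.GeoOmega.Singular Cfsg.Agent.Lib.GeoOmega.Roots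
open Cfsg.Agent.Lib.GeoOmega.Levi Cfsg.Agent.Lib.GeoOmega.Nondeg
open scoped MatrixGroups Matrix

variable {ι : Type} [Fintype ι] [DecidableEq ι] {F : Type*} [Field F]
variable {Q : (ι → F) → F}

variable (hQ : IsNondegenerateQuadraticForm Q)
include hQ

/-- A non-degenerate subspace and its perp. -/
theorem orthDec_of_nd {W : Submodule F (ι → F)} (hW : IsNondegenerateOn (QuadraticMap.polar Q) W) :
    OrthDec Q W ((polB hQ).orthogonal W) := by
  have hinf : W ⊓ (polB hQ).orthogonal W = ⊥ := by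
    rw [eq_bot_iff]
    rintro x ⟨hx, hxo⟩
    by_contra hx0
    obtain ⟨y, hy, hne⟩ := (hW x hx hx0).2
    exact hne ((mem_orth_iff hQ).mp hxo y hy)
  refine ⟨?_, hinf, ?_⟩
  · apply Submodule.eq_top_of_finrank_eq
    have h1 := Submodule.finrank_sup_add_finrank_inf_eq W ((polB hQ).orthogonal W)
    have h2 := finrank_orth' hQ W
    rw [hinf, finrank_bot] at h1
    rw [finrank_total]
    omega
  · intro a ha b hb
    rw [pol_symm hQ]
    exact (mem_orth_iff hQ).mp hb a ha

/-- Stabilisers of `W` and `W^⊥` in the isometry group agree. -/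
theorem stab_orth_of_stab {W : Submodule F (ι → F)} {g : GL ι F} (hgI : g ∈ isometryGroup F Q)
    (hg : g ∈ subspaceStabilizer W) : g ∈ subspaceStabilizer ((polB hQ).orthogonal W) := by
  apply mem_subspaceStabilizer_of_forall_mem
  intro x hx
  rw [mem_orth_iff hQ]
  intro u hu
  have h1 : (g⁻¹ : GL ι F) ∈ subspaceStabilizer W := (subspaceStabilizer W).inv_mem hg
  have h2 := (mem_subspaceStabilizer_iff_forall_mem W _).mp h1 u hu
  have h3 := (mem_orth_iff hQ).mp hx _ h2
  rw [← pol_isometry g hgI, mulVec_inv_mulVec] at h3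
  exact h3

theorem stab_orth_eq (W : Submodule F (ι → F)) :
    subspaceStabilizer ((polB hQ).orthogonal W) ⊓ omegaGL Q = subspaceStabilizer W ⊓ omegaGL Q := by
  apply le_antisymm
  · rintro g ⟨h1, h2⟩
    refine ⟨?_, h2⟩
    have := stab_orth_of_stab hQ (omegaGL_le_isometryGroup Q h2) h1
    rwa [orth_orth hQ] at this
  · rintro g ⟨h1, h2⟩
    exact ⟨stab_orth_of_stab hQ (omegaGL_le_isometryGroup Q h2) h1, h2⟩

/-- Main theorem for a non-degenerate `W`. -/
theorem nondeg_isMaximalIn [Fintype F] (hn : 13 ≤ Fintype.card ι) {W : Submodule F (ι → F)} (hW0 : W ≠ ⊥)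
    (hW1 : W ≠ ⊤) (hW : IsNondegenerateOn (QuadraticMap.polar Q) W)
    (hY : Module.finrank F W = 2 → Fintype.card F ≤ 3 → ∀ y ∈ W, Q y = 0 → y = 0)
    (hY' : Module.finrank F ((polB hQ).orthogonal W) = 2 → Fintype.card F ≤ 3 →
      ∀ y ∈ (polB hQ).orthogonal W, Q y = 0 → y = 0)
    (hsw : ∀ g ∈ omegaGL Q, W.map (Matrix.toLin' (g : Matrix ι ι F)) ≠ (polB hQ).orthogonal W) :
    IsMaximalIn (omegaGL Q) (subspaceStabilizer W ⊓ omegaGL Q) := by
  have hdec := orthDec_of_nd hQ hW
  have hW'0 : (polB hQ).orthogonal W ≠ ⊥ := by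
    intro h
    have h1 := hdec.sup
    rw [h, sup_bot_eq] at h1
    exact hW1 h1
  by_cases hd : Module.finrank F ((polB hQ).orthogonal W) ≤ Module.finrank F W
  · exact c1_isMaximalIn (hQ := hQ) hn hdec hd hW'0 hY' hsw
  · rw [← stab_orth_eq hQ W]
    refine c1_isMaximalIn (hQ := hQ) hn (hdec.symm hQ) (by omega) hW0 hY ?_
    intro g hg h
    apply hsw g⁻¹ ((omegaGL Q).inv_mem hg)
    conv_lhs => rw [← h]
    rw [← map_mul_toLin']
    simp

/-- The isometry-swap: a subgroup element mapping `W` to `W^⊥` with an anti-isometry of `W` gives plus type. -/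
theorem plus_of_swap {W : Submodule F (ι → F)} (hW : IsNondegenerateOn (QuadraticMap.polar Q) W)
    {g : GL ι F} (hgI : g ∈ isometryGroup F Q)
    (hg : W.map (Matrix.toLin' (g : Matrix ι ι F)) = (polB hQ).orthogonal W)
    (J : W →ₗ[F] W) (hJ : ∀ a : W, Q (J a : ι → F) = - Q (a : ι → F)) :
    IsPlusTypeOn Q ⊤ := by
  have hdec := orthDec_of_nd hQ hW
  have hg' : ∀ a ∈ W, (g : Matrix ι ι F) *ᵥ a ∈ (polB hQ).orthogonal W := by
    intro a ha
    rw [← hg]
    exact ⟨a, ha, by simp⟩
  -- the map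
  set L : W →ₗ[F] (ι → F) := (Matrix.toLin' (g : Matrix ι ι F)).comp W.subtype + W.subtype.comp J with hL
  have hLa : ∀ a : W, L a = (g : Matrix ι ι F) *ᵥ (a : ι → F) + (J a : ι → F) := by
    intro a
    simp [hL]
  have hinj : Function.Injective L := by
    rw [← LinearMap.ker_eq_bot, LinearMap.ker_eq_bot']
    intro a ha
    rw [hLa] at ha
    have h1 : (g : Matrix ι ι F) *ᵥ (a : ι → F) ∈ W := by
      have : (g : Matrix ι ι F) *ᵥ (a : ι → F) = - (J a : ι → F) := eq_neg_of_add_eq_zero_left ha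
      rw [this]
      exact W.neg_mem (J a).2
    have h2 : (g : Matrix ι ι F) *ᵥ (a : ι → F) ∈ W ⊓ (polB hQ).orthogonal W := ⟨h1, hg' a a.2⟩
    rw [hdec.inf, Submodule.mem_bot] at h2
    have h3 : (a : ι → F) = 0 := by
      rw [← inv_mulVec_mulVec g (a : ι → F), h2]
      simp
    exact Subtype.ext h3
  refine ⟨LinearMap.range L, le_top, ?_, ?_⟩
  · rintro _ ⟨a, rfl⟩
    rw [hLa, Q_add hQ, (mem_isometryGroup_iff Q g).mp hgI, hJ]
    have h4 : pol Q ((g : Matrix ι ι F) *ᵥ (a : ι → F)) (J a : ι → F) = 0 := by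
      rw [pol_symm hQ]
      exact hdec.orth _ (J a).2 _ (hg' a a.2)
    rw [h4]
    ring
  · rw [LinearMap.finrank_range_of_inj hinj, finrank_top, finrank_total]
    have h5 := finrank_orth' hQ W
    have h6 : Module.finrank F ((polB hQ).orthogonal W) = Module.finrank F W := by
      rw [← hg, finrank_map_toLin']
    omega

/-- `Q` is additive on orthogonal families. -/
theorem Q_sum_orth {T : Type*} (s : Finset T) (f : T → (ι → F))
    (h : ∀ x ∈ s, ∀ y ∈ s, x ≠ y → pol Q (f x) (f y) = 0) :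
    Q (∑ x ∈ s, f x) = ∑ x ∈ s, Q (f x) := by
  classical
  induction s using Finset.induction_on with
  | empty => simpa using Q_zero hQ
  | insert a s ha ih =>
    rw [Finset.sum_insert ha, Finset.sum_insert ha, Q_add hQ, ih]
    · have h1 : pol Q (f a) (∑ x ∈ s, f x) = 0 := by
        have h2 : ∀ t : Finset T, t ⊆ s → pol Q (f a) (∑ x ∈ t, f x) = 0 := by
          intro t
          induction t using Finset.induction_on with
          | empty =>
            intro _
            simpa using pol_zero_right hQ (f a)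
          | insert b t hb ih2 =>
            intro hts
            rw [Finset.sum_insert hb, pol_add_right hQ, ih2 (fun x hx => hts (Finset.mem_insert_of_mem hx)),
              h a (Finset.mem_insert_self _ _) b (Finset.mem_insert_of_mem (hts (Finset.mem_insert_self _ _)))
                (fun hab => ha (hab ▸ hts (Finset.mem_insert_self _ _)))]
            ring
        exact h2 s (Finset.Subset.refl s)
      rw [h1, add_zero]
    · intro x hx y hy hxy
      exact h x (Finset.mem_insert_of_mem hx) y (Finset.mem_insert_of_mem hy) hxy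

/-- Even-dimensional non-degenerate subspaces over finite fields admit anti-isometries. -/
theorem exists_anti [Fintype F] {W : Submodule F (ι → F)} (hW : IsNondegenerateOn (QuadraticMap.polar Q) W)
    (hev : Even (Module.finrank F W)) :
    ∃ J : W →ₗ[F] W, ∀ a : W, Q (J a : ι → F) = - Q (a : ι → F) := by
  classical
  by_cases h2 : (2 : F) = 0
  · refine ⟨LinearMap.id, fun a => ?_⟩
    simp only [LinearMap.id_coe, id_eq]
    linear_combination (Q (a : ι → F)) * h2
  have hodd : Fintype.card F % 2 = 1 := by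
    apply FiniteField.odd_card_of_char_ne_two
    intro h
    apply h2
    have := ringChar.Nat.cast_ringChar (R := F)
    rw [h] at this
    exact_mod_cast this
  haveI : Invertible (2 : F) := invertibleOfNonzero h2
  set B : LinearMap.BilinForm F W := (polB hQ).restrict W with hB
  have hBa : ∀ x y : W, B x y = pol Q (x : ι → F) (y : ι → F) := fun x y => rfl
  have hBs : LinearMap.IsSymm B := by
    constructor
    intro x y
    rw [hBa, hBa, pol_symm hQ]
    rfl
  obtain ⟨v, hv⟩ := LinearMap.BilinForm.exists_orthogonal_basis hBs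
  obtain ⟨l, hl⟩ := hev
  set b : Module.Basis (Fin l ⊕ Fin l) F W := v.reindex ((finCongr hl).trans finSumFinEquiv.symm) with hb
  have horth : ∀ x y, x ≠ y → pol Q (b x : ι → F) (b y : ι → F) = 0 := by
    intro x y hxy
    rw [hb]
    simp only [Module.Basis.reindex_apply]
    exact hv (fun h => hxy (((finCongr hl).trans finSumFinEquiv.symm).symm.injective h))
  have hne : ∀ x, Q (b x : ι → F) ≠ 0 := by
    intro x hx
    have hbx0 : (b x : ι → F) ≠ 0 := by
      intro h
      exact b.ne_zero x (Subtype.ext h)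
    obtain ⟨y, hy, hy'⟩ := (hW _ (b x).2 hbx0).2
    apply hy'
    have h3 : (B (b x)) = 0 := by
      apply b.ext
      intro z
      rw [hBa]
      by_cases hxz : x = z
      · subst hxz
        simp [pol_self hQ, hx]
      · simpa using horth x z hxz
    have h4 := congrArg (fun L : W →ₗ[F] F => L ⟨y, hy⟩) h3
    exact h4
  -- scalars
  have hsc : ∀ α β : F, α ≠ 0 → β ≠ 0 → ∃ u v : F, α * u ^ 2 + β * v ^ 2 = - α := by
    intro α β hα hβ
    open Polynomial in
    have hf : degree (C α * X ^ 2 + C 0 * X + C α) = 2 := degree_quadratic hα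
    open Polynomial in
    have hg : degree (C β * X ^ 2 + C 0 * X + C 0) = 2 := degree_quadratic hβ
    obtain ⟨a, b, hab⟩ := FiniteField.exists_root_sum_quadratic hf hg hodd
    refine ⟨a, b, ?_⟩
    simp only [Polynomial.eval_add, Polynomial.eval_mul, Polynomial.eval_C, Polynomial.eval_pow,
      Polynomial.eval_X] at hab
    linear_combination hab
  choose u w huw using fun i : Fin l => hsc (Q (b (.inl i) : ι → F)) (Q (b (.inr i) : ι → F)) (hne _) (hne _)
  set α : Fin l → F := fun i => Q (b (.inl i) : ι → F) with hα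
  set β : Fin l → F := fun i => Q (b (.inr i) : ι → F) with hβ
  set fJ : Fin l ⊕ Fin l → W := fun x => match x with
    | .inl i => u i • b (.inl i) + w i • b (.inr i)
    | .inr i => (-(β i / α i) * w i) • b (.inl i) + u i • b (.inr i) with hfJ
  refine ⟨b.constr F fJ, fun a => ?_⟩
  -- blocks
  set c := b.repr a with hc
  have hae : a = ∑ i : Fin l, (c (.inl i) • b (.inl i) + c (.inr i) • b (.inr i)) := by
    conv_lhs => rw [← b.sum_repr a]
    rw [Fintype.sum_sum_type, ← Finset.sum_add_distrib]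
  have hJa : b.constr F fJ a = ∑ i : Fin l, (c (.inl i) • fJ (.inl i) + c (.inr i) • fJ (.inr i)) := by
    rw [Module.Basis.constr_apply_fintype, Fintype.sum_sum_type, ← Finset.sum_add_distrib]
    rfl
  have hblock : ∀ i j : Fin l, i ≠ j → ∀ s t s' t' : F,
      pol Q (s • (b (.inl i) : ι → F) + t • (b (.inr i) : ι → F))
        (s' • (b (.inl j) : ι → F) + t' • (b (.inr j) : ι → F)) = 0 := by
    intro i j hij s t s' t'
    simp only [pol_add_left hQ, pol_add_right hQ, pol_smul_left hQ, pol_smul_right hQ]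
    rw [horth (.inl i) (.inl j) (by simpa using hij), horth (.inl i) (.inr j) (by simp),
      horth (.inr i) (.inl j) (by simp), horth (.inr i) (.inr j) (by simpa using hij)]
    ring
  have hQb : ∀ (i : Fin l) (s t : F),
      Q (s • (b (.inl i) : ι → F) + t • (b (.inr i) : ι → F)) = s ^ 2 * α i + t ^ 2 * β i := by
    intro i s t
    rw [Q_add hQ, hQ.smul, hQ.smul, pol_smul_left hQ, pol_smul_right hQ, horth (.inl i) (.inr i) (by simp)]
    ring
  have e1 : (a : ι → F) = ∑ i : Fin l, (c (.inl i) • (b (.inl i) : ι → F) + c (.inr i) • (b (.inr i) : ι → F)) := by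
    conv_lhs => rw [hae]
    simp
  have e2 : ((b.constr F fJ a : W) : ι → F) = ∑ i : Fin l,
      ((c (.inl i) * u i + c (.inr i) * (-(β i / α i) * w i)) • (b (.inl i) : ι → F) +
        (c (.inl i) * w i + c (.inr i) * u i) • (b (.inr i) : ι → F)) := by
    rw [hJa]
    simp only [AddSubmonoidClass.coe_finset_sum, hfJ]
    refine Finset.sum_congr rfl fun i _ => ?_
    simp only [Submodule.coe_add, Submodule.coe_smul]
    module
  rw [e1, e2, Q_sum_orth hQ _ _ (fun i _ j _ hij => hblock i j hij _ _ _ _),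
    Q_sum_orth hQ _ _ (fun i _ j _ hij => hblock i j hij _ _ _ _), ← Finset.sum_neg_distrib]
  refine Finset.sum_congr rfl fun i _ => ?_
  rw [hQb, hQb]
  have hα0 : α i ≠ 0 := hne _
  have h5 := huw i
  have h6 : (c (.inl i) * u i + c (.inr i) * (-(β i / α i) * w i)) ^ 2 * α i +
      (c (.inl i) * w i + c (.inr i) * u i) ^ 2 * β i =
      c (.inl i) ^ 2 * (α i * u i ^ 2 + β i * w i ^ 2) +
        c (.inr i) ^ 2 * (β i / α i) * (α i * u i ^ 2 + β i * w i ^ 2) := by
    field_simp
    ring
  rw [h6]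
  change _ = -(_ * α i + _ * β i)
  have h7 : α i * u i ^ 2 + β i * w i ^ 2 = - α i := h5
  rw [h7]
  field_simp
  ring

omit hQ in
theorem plus_of_singular {U : Submodule F (ι → F)} (hhQ : IsNondegenerateQuadraticForm Q)
    (hU2 : Module.finrank F U = 2) {y : ι → F} (hy : y ∈ U) (hy0 : y ≠ 0) (hyQ : Q y = 0) :
    IsPlusTypeOn Q U := by
  refine ⟨Submodule.span F {y}, ?_, ?_, ?_⟩
  · rw [Submodule.span_singleton_le_iff_mem]
    exact hy
  · intro w hw
    obtain ⟨s, rfl⟩ := Submodule.mem_span_singleton.mp hw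
    rw [hhQ.smul, hyQ, mul_zero]
  · rw [finrank_span_singleton hy0, hU2]

omit hQ in
theorem isNondegOn_of_nd {U : Submodule F (ι → F)} (hhQ : IsNondegenerateQuadraticForm Q)
    (h : NDOn Q U) : IsNondegenerateOn (QuadraticMap.polar Q) U := by
  intro w hw hw0
  obtain ⟨y, hy, hne⟩ := h w hw hw0
  exact ⟨⟨y, hy, by rw [pol_symm hhQ] at hne; exact hne⟩, ⟨y, hy, hne⟩⟩

/-- The version with the exclusion of small planes. -/
theorem nondeg_hex [Fintype F] (hn : 13 ≤ Fintype.card ι) {W : Submodule F (ι → F)} (hW0 : W ≠ ⊥)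
    (hW1 : W ≠ ⊤) (hW : IsNondegenerateOn (QuadraticMap.polar Q) W)
    (hex : ¬ (Fintype.card F ≤ 3 ∧ (∃ U : Submodule F (ι → F), Module.finrank F U = 2 ∧
      IsNondegenerateOn (QuadraticMap.polar Q) U ∧ IsPlusTypeOn Q U ∧
      (U = W ∨ (AreOrthogonalFor (QuadraticMap.polar Q) U W ∧
        Module.finrank F U + Module.finrank F W = Fintype.card ι)))))
    (hsw : ∀ g ∈ omegaGL Q, W.map (Matrix.toLin' (g : Matrix ι ι F)) ≠ (polB hQ).orthogonal W) :
    IsMaximalIn (omegaGL Q) (subspaceStabilizer W ⊓ omegaGL Q) := by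
  have hdec := orthDec_of_nd hQ hW
  refine nondeg_isMaximalIn hQ hn hW0 hW1 hW ?_ ?_ hsw
  · intro h2 hq y hy hyQ
    by_contra hy0
    exact hex ⟨hq, W, h2, hW, plus_of_singular hQ h2 hy hy0 hyQ, Or.inl rfl⟩
  · intro h2 hq y hy hyQ
    by_contra hy0
    refine hex ⟨hq, _, h2, isNondegOn_of_nd hQ ((hdec.symm hQ).nd hQ), plus_of_singular hQ h2 hy hy0 hyQ,
      Or.inr ⟨fun u hu v hv => ?_, ?_⟩⟩
    · exact (mem_orth_iff hQ).mp hu v hv
    · exact finrank_orth' hQ W

/-- A swap is impossible if the dimensions differ. -/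
theorem swap_of_dim {W : Submodule F (ι → F)} (hd : 2 * Module.finrank F W ≠ Fintype.card ι)
    (g : GL ι F) : W.map (Matrix.toLin' (g : Matrix ι ι F)) ≠ (polB hQ).orthogonal W := by
  intro h
  have h1 := finrank_orth' hQ W
  rw [← h, finrank_map_toLin'] at h1
  omega

end Cfsg.Agent.Lib.GeoOmega.NondegW
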